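import Cfsg.Agent.Lib.KnownSimple.MultM.L34L.Fact1_0

/-!
# A coset enumeration
-/

set_option autoImplicit false

namespace Cfsg.Agent.Lib.KnownSimple.MultM.L34L

open Cfsg Cfsg.Spor Cfsg.Agent.Lib.Compute Cfsg.Agent.Lib.KnownSimple.PE Cfsg.Agent.Lib.KnownSimple.Leech
open Cfsg.Agent.Lib.KnownSimple Cfsg.Agent.Lib.KnownSimple.AutRigid Cfsg.Agent.Lib.KnownSimple.Pres


theorem facts1 : allBelow (Cert.factOK C1) K1 = true :=
  allBelow_of_pad (m := 1) (s := 2584) (by norm_num) (fun c hc => by
    interval_cases c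
    · exact fc1_0
  )
set_option maxHeartbeats 0 in
set_option maxRecDepth 100000 in
theorem ec1_0 : chunk (padB 4 (fun i => allBelow (fun g => Cert.entry C1 4 K1 g i) 3)) 2584 0 = true := by decide +kernel

theorem entries1 : allBelow (fun i => allBelow (fun g => Cert.entry C1 4 K1 g i) 3) 4 = true :=
  allBelow_of_pad (m := 1) (s := 2584) (by norm_num) (fun c hc => by
    interval_cases c
    · exact ec1_0
  )

end Cfsg.Agent.Lib.KnownSimple.MultM.L34L
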