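import Mathlib

/-!
# Data of a coset enumeration
-/

set_option autoImplicit false

namespace Cfsg.Agent.Lib.KnownSimple.MultM.L34L

/-- Generated data. -/
def par1 : ℕ := 0x90
/-- Generated data. -/
def gix1 : ℕ := 0x48
/-- Generated data. -/
def dp1 : ℕ := 0xe4
/-- Generated data. -/
def fa1 : ℕ := 0xe7e940
/-- Generated data. -/
def fl1 : ℕ := 0x4a1864
/-- Generated data. -/
def fb1 : ℕ := 0x93fa50
/-- Generated data. -/
def fk1 : ℕ := 0x324850607011
/-- Generated data. -/
def po1 : ℕ := 0x9460d4206300000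
/-- Generated data. -/
def pc1 : ℕ := 0x24ba28600
/-- Generated data. -/
def pa1 : ℕ := 0xc84cbdc879d84159435
/-- Generated data. -/
def can1 : ℕ := 0xe4
/-- Generated data. -/
def tb1_0 : ℕ := 0xd8
/-- Generated data. -/
def fi1_0 : ℕ := 0x7a40
/-- Generated data. -/
def tb1_1 : ℕ := 0xb4
/-- Generated data. -/
def fi1_1 : ℕ := 0xb631
/-- Generated data. -/
def tb1_2 : ℕ := 0xe1
/-- Generated data. -/
def fi1_2 : ℕ := 0x8592

end Cfsg.Agent.Lib.KnownSimple.MultM.L34L
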