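import Mathlib

/-!
# Data of a coset enumeration
-/

set_option autoImplicit false

namespace Cfsg.Agent.Lib.KnownSimple.MultM.L34L

/-- Generated data. -/
def par2 : ℕ := 0x90
/-- Generated data. -/
def gix2 : ℕ := 0x4c
/-- Generated data. -/
def dp2 : ℕ := 0xe4
/-- Generated data. -/
def fa2 : ℕ := 0xfa6f9500
/-- Generated data. -/
def fl2 : ℕ := 0x9cec49e4
/-- Generated data. -/
def fb2 : ℕ := 0xad3be540
/-- Generated data. -/
def fk2 : ℕ := 0x43525a9600870111
/-- Generated data. -/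
def po2 : ℕ := 0x9238a18152c61860c0000000
/-- Generated data. -/
def pc2 : ℕ := 0x11111ba500330000
/-- Generated data. -/
def pa2 : ℕ := 0x14749867c26f8398b6ca2e62d2b304e96b9896bcc539867
/-- Generated data. -/
def can2 : ℕ := 0xe4
/-- Generated data. -/
def tb2_0 : ℕ := 0xd8
/-- Generated data. -/
def fi2_0 : ℕ := 0x8c60
/-- Generated data. -/
def tb2_1 : ℕ := 0xb4
/-- Generated data. -/
def fi2_1 : ℕ := 0xe741
/-- Generated data. -/
def tb2_2 : ℕ := 0xb4
/-- Generated data. -/
def fi2_2 : ℕ := 0xfa52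
/-- Generated data. -/
def tb2_3 : ℕ := 0xb1
/-- Generated data. -/
def fi2_3 : ℕ := 0x9db3

end Cfsg.Agent.Lib.KnownSimple.MultM.L34L
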