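import Mathlib

/-!
# Data of a coset enumeration
-/

set_option autoImplicit false

namespace Cfsg.Agent.Lib.KnownSimple.MultM.L34L

/-- Generated data. -/
def par3 : ℕ := 0x885433222211100
/-- Generated data. -/
def gix3 : ℕ := 0x4008468a220
/-- Generated data. -/
def dp3 : ℕ := 0x1246db6da488
/-- Generated data. -/
def fa3 : ℕ := 0xeedcc99998532211dd8edee8d88ccc5556993b3312a276b4aa3532222413311100000
/-- Generated data. -/
def fl3 : ℕ := 0x202002000808080080408200101030408001080c084000c1820200182c610182c603182078c063080c0000608200080c101060820302001840608080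
/-- Generated data. -/
def fb3 : ℕ := 0x888e55cc32215103ddeedceedd8c99c5256919b4321a2b9b7aa998765443332110000
/-- Generated data. -/
def fk3 : ℕ := 0x4188c23106230c641188e4d4f062c0a051e9401a4318a4108842885395c1668220000006818b0028008421
/-- Generated data. -/
def po3 : ℕ := 0xbab9b8b7b6b5b4b3b2b1b0afaeadacaba19c948f87827f7f76766e645f5a5a575553514f4d4b49474543413f362e26261e1b1b13131313131310100b080808000000000000
/-- Generated data. -/
def pc3 : ℕ := 0x1111111111111111a5858530908a55032222222222229880830800000305300800000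
/-- Generated data. -/
def pa3 : ℕ := 0x192d56bd311509c80f181d206088182b65b596ee3bb6abd6cb8f2573cd8fdbc7771ddb55f056b758f199b7ad57b368f19473ad55b758f0c100448d3f5cf199b4a64b927e64b303058f43427d099246404330c0c1e864b79118d4444f973e5aeca3c42ed5b82ad123038c863050a1329386d7ad4460d0c10100092aad51728203891e85324264498e1a752114a60608040048f42505951c201891e3858f100c087021c289
/-- Generated data. -/
def can3 : ℕ := 0xedc9853210
/-- Generated data. -/
def tb3_0 : ℕ := 0x9543876120
/-- Generated data. -/
def fi3_0 : ℕ := 0x18c280f15a620dc300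
/-- Generated data. -/
def tb3_1 : ℕ := 0x5867921430
/-- Generated data. -/
def fi3_1 : ℕ := 0x21b04ef56ba7230381
/-- Generated data. -/
def tb3_2 : ℕ := 0x5867921430
/-- Generated data. -/
def fi3_2 : ℕ := 0x223350f992440e1a82
/-- Generated data. -/
def tb3_3 : ℕ := 0x9876543210
/-- Generated data. -/
def fi3_3 : ℕ := 0xbb4a61aa521b143
/-- Generated data. -/
def tb3_4 : ℕ := 0x7894263501
/-- Generated data. -/
def fi3_4 : ℕ := 0x17ac82fdd91123db04

end Cfsg.Agent.Lib.KnownSimple.MultM.L34L
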