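import Cfsg.Agent.Lib.KnownSimple.MultC.TabP

/-!
# The table of the letters
-/

set_option autoImplicit false

namespace Cfsg.Agent.Lib.KnownSimple.MultM.L34L

open Cfsg.Agent.Lib.KnownSimple.MultC

set_option maxRecDepth 1000000 in
/-- The table of the letters. -/
def tn : ZN := (.node 818360139158776049368867705762783701831047299508875842826663175069748694892295919128201052580369710323162806115682999260875496496621210306001548869640 (.node 2659670451980213183648216302996161413451029152029222388190829456882117820070773620639557639963339996373250866542086241713645623978849509461262986838027 (.node 2045900348087479441474085891624091709678930577616060585485923868898845052366329697704741099844336707098919002692734237083042273230376273452856665702400 (.node 210726112147490150067416292204511431471820056207635252650921574342931940085564303038703260551577272953194794831519829424454339264518 .nil .nil) .nil) (.node 3273440556587469368078945570268983743365348775947360610390848767451670020465877333877640895737874029754994109604061684877209003825027360011874053455885 .nil .nil)) (.node 1636720278889170052594032397040832837604447708921211793405010212548655271824508488356920216792654485627482368065040639670134570999525631928328832483333 (.node 1022950174329548697626373470547130272354146554798940666508378358880998815308902486310324739070797465303513365017507504847121517266407025512204535398401 .nil .nil) (.node 3682620625642874268536515498440221437365207980472547763709853331896509113894685021496174376170112523745441712400223565485611158013905569598805921431571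 .nil .nil)))

end Cfsg.Agent.Lib.KnownSimple.MultM.L34L
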