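import Cfsg.Agent.Lib.KnownSimple.MultM.L34L.Bound
import Cfsg.Agent.Lib.KnownSimple.MultM.L34L.NatD
import Cfsg.Agent.Lib.KnownSimple.MultC.GenQ
import Cfsg.Agent.Lib.KnownSimple.MultC.L34P

/-!
# The natural representation
-/

set_option autoImplicit false

namespace Cfsg.Agent.Lib.KnownSimple.MultM.L34L

open Cfsg Cfsg.Spor Cfsg.Agent.Lib.Compute Cfsg.Agent.Lib.KnownSimple.PE Cfsg.Agent.Lib.KnownSimple.Leech
open Cfsg.Agent.Lib.KnownSimple Cfsg.Agent.Lib.KnownSimple.AutRigid Cfsg.Agent.Lib.KnownSimple.Pres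
open Cfsg.Agent.Lib.KnownSimple.MultC


open Cfsg.Agent.Lib.KnownSimple.MultC.MatN Cfsg.Agent.Lib.KnownSimple.MultC.GenQ Matrix Cfsg.Agent.Lib.KnownSimple.MultC.L34P Cfsg.Agent.Lib.KnownSimple.MultC.G2P

abbrev d : ℕ := 6
abbrev N0 : ℕ := 21
theorem hP : IsPres d v (stdRels S) := isPres_std S (by decide +kernel)
/-- The table of the letters. -/
noncomputable abbrev τN : ℕ → ℕ → ℕ := tauP d tn
set_option maxHeartbeats 0 in
set_option maxRecDepth 100000 in
theorem hCN : chkCoset τN d N0 = true := by decide +kernel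
/-- The natural table. -/
noncomputable def CN : Coset d N0 := mkCoset τN hCN
set_option maxHeartbeats 0 in
theorem hok : ∀ r ∈ stdRels S, ∀ l ∈ r, l < 2 * d := words_of_chk (by decide +kernel)
set_option maxHeartbeats 0 in
set_option maxRecDepth 100000 in
theorem hl0 : ∀ r ∈ stdRels S, ∀ i, i < N0 → actW CN.τ r i = i := loops_of_chk (by decide +kernel)
theorem ex0 : ∃ ρ : P →* Equiv.Perm (Fin N0), ∀ x, x < d → ρ (v x) = (CN.p x)⁻¹ := exists_rho hP CN hok hl0
/-- The natural representation. -/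
noncomputable def ρ0 : P →* Equiv.Perm (Fin N0) := ex0.choose
theorem hρ0 : ∀ x, x < d → ρ0 (v x) = (CN.p x)⁻¹ := ex0.choose_spec
set_option maxRecDepth 100000 in
/-- The root elements. -/
def RTL : List (List (List ℕ)) := [[[1,0,0],
  [0,1,0],
  [0,0,1]],[[1,0,0],
  [0,1,0],
  [0,0,1]],[[1,0,0],
  [0,1,0],
  [0,0,1]],[[1,0,0],
  [0,1,0],
  [0,0,1]],[[1,0,0],
  [0,1,0],
  [0,0,1]],[[1,1,0],
  [0,1,0],
  [0,0,1]],[[1,2,0],
  [0,1,0],
  [0,0,1]],[[1,3,0],
  [0,1,0],
  [0,0,1]],[[1,0,0],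
  [0,1,0],
  [0,0,1]],[[1,0,1],
  [0,1,0],
  [0,0,1]],[[1,0,2],
  [0,1,0],
  [0,0,1]],[[1,0,3],
  [0,1,0],
  [0,0,1]],[[1,0,0],
  [0,1,0],
  [0,0,1]],[[1,0,0],
  [1,1,0],
  [0,0,1]],[[1,0,0],
  [2,1,0],
  [0,0,1]],[[1,0,0],
  [3,1,0],
  [0,0,1]],[[1,0,0],
  [0,1,0],
  [0,0,1]],[[1,0,0],
  [0,1,0],
  [0,0,1]],[[1,0,0],
  [0,1,0],
  [0,0,1]],[[1,0,0],
  [0,1,0],
  [0,0,1]],[[1,0,0],
  [0,1,0],
  [0,0,1]],[[1,0,0],
  [0,1,1],
  [0,0,1]],[[1,0,0],
  [0,1,2],
  [0,0,1]],[[1,0,0],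
  [0,1,3],
  [0,0,1]],[[1,0,0],
  [0,1,0],
  [0,0,1]],[[1,0,0],
  [0,1,0],
  [1,0,1]],[[1,0,0],
  [0,1,0],
  [2,0,1]],[[1,0,0],
  [0,1,0],
  [3,0,1]],[[1,0,0],
  [0,1,0],
  [0,0,1]],[[1,0,0],
  [0,1,0],
  [0,1,1]],[[1,0,0],
  [0,1,0],
  [0,2,1]],[[1,0,0],
  [0,1,0],
  [0,3,1]],[[1,0,0],
  [0,1,0],
  [0,0,1]],[[1,0,0],
  [0,1,0],
  [0,0,1]],[[1,0,0],
  [0,1,0],
  [0,0,1]],[[1,0,0],
  [0,1,0],
  [0,0,1]]]
set_option maxRecDepth 100000 in
/-- The generators as matrices. -/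
def TML : List (List (List ℕ)) := [[[2,2,3],
  [0,1,0],
  [3,2,2]],[[1,0,0],
  [2,1,1],
  [0,0,1]],[[1,0,0],
  [0,1,3],
  [0,0,1]],[[1,0,0],
  [3,1,3],
  [0,0,1]],[[2,2,0],
  [1,2,0],
  [3,2,1]],[[1,0,0],
  [0,1,0],
  [1,0,1]]]
set_option maxRecDepth 100000 in
/-- The generators as words in the root elements. -/
def gWL : List (List ℕ) := [[9,27,30,9],
  [14,21],
  [23],
  [15,23],
  [7,13,27,7],
  [25]]
set_option maxRecDepth 100000 in
/-- The root elements as words in the generators. -/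
def uWL : List (List ℕ) := [[],
  [],
  [],
  [],
  [],
  [6,8,0,10,0,8,6],
  [6,10,0,2,0,10,6],
  [4,10,8,4,0,2,8,10],
  [],
  [4,10,0,6,0,10],
  [4,8,0,10,8,10,0,8],
  [10,8,4,2,8,10,4],
  [],
  [2,10,2,10],
  [2,4,6,10,2,10],
  [4,6],
  [],
  [],
  [],
  [],
  [],
  [10,2,10,6,4],
  [6,10,2,10],
  [4],
  [],
  [10],
  [0,8,10,0,2,0,10,8,0],
  [0,8,10,0,2,0,10,8,0,10],
  [],
  [6,8,0,10,4,0,8,6,0],
  [0,2,6,0,10,0,6,2,0],
  [8,10,0,6,8,10,8,6,0],
  [],
  [],
  [],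
  []]
/-- The root elements, as a function. -/
noncomputable abbrev RTf : ℕ → List (List ℕ) := fun l => lg [] RTL l
/-- The words, as a function. -/
noncomputable abbrev uWf : ℕ → List ℕ := fun l => lg [] uWL l
set_option maxHeartbeats 0 in
set_option maxRecDepth 100000 in
theorem hRT00 : ∀ (l : Fin 36) (a b : Fin 3),
    decide (rootMIJ (fin3 (l.val / 12)) (fin3 (l.val / 4)) (FC4.c (l.val % 4)) a b = toM FC4 ord3 (RTf l.val) a b) = true := by decide +kernel
theorem hroot : ∀ l, l < 36 → Phi3 (rootL l) = toM FC4 ord3 (RTf l) := by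
  intro l hl
  rw [rootL_val]
  ext a b
  exact of_decide_eq_true (hRT00 ⟨l, hl⟩ a b)
set_option maxHeartbeats 0 in
set_option maxRecDepth 100000 in
theorem c1 : allBelow (fun l => shapeOK 3 (RTf l)) 36 = true := by decide +kernel
set_option maxHeartbeats 0 in
set_option maxRecDepth 100000 in
theorem c2 : allBelow (fun x => shapeOK 3 (lg [] TML x)) d = true := by decide +kernel
set_option maxHeartbeats 0 in
set_option maxRecDepth 100000 in
theorem c3 : allBelow (fun x => (lg [] gWL x).all fun l => Nat.blt l 36) d = true := by decide +kernel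
set_option maxHeartbeats 0 in
set_option maxRecDepth 100000 in
theorem c4 : allBelow (fun x => allBelow (fun j => Nat.beq (actN FC4.add FC4.mul FC4.b RTf (lg [] gWL x) (FC4.b ^ j)) (colC FC4.b (lg [] TML x) j))
      3) d = true := by decide +kernel
set_option maxHeartbeats 0 in
set_option maxRecDepth 100000 in
theorem c5 : allBelow (fun x => allBelow (fun j => Nat.beq (actN FC4.add FC4.mul FC4.b (fun l => lg [] TML (l / 2)) [2 * x, 2 * x] (FC4.b ^ j)) (FC4.b ^ j))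
      3) d = true := by decide +kernel
set_option maxHeartbeats 0 in
set_option maxRecDepth 100000 in
theorem c6 : (stdRels S).all (fun r => scs3.any fun S' => allBelow (fun j => Nat.beq (actN FC4.add FC4.mul FC4.b (fun l => lg [] TML (l / 2)) r (FC4.b ^ j)) (colC FC4.b S' j))
      3) = true := by decide +kernel
set_option maxHeartbeats 0 in
set_option maxRecDepth 100000 in
theorem c7w : allBelow (fun l => (uWf l).all fun a => Nat.blt a (2 * d)) 36 = true := by decide +kernel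
set_option maxHeartbeats 0 in
set_option maxRecDepth 100000 in
theorem c7 : allBelow (fun l => allBelow (fun j => Nat.beq (actN FC4.add FC4.mul FC4.b (fun l => lg [] TML (l / 2)) (uWf l) (FC4.b ^ j)) (colC FC4.b (RTf l) j))
      3) 36 = true := by decide +kernel
theorem hle : Nat.card P ≤ Nat.card PSL3 := by
  rw [card_PSL3]
  exact finite_P.2
theorem ex_e : Nonempty (P ≃* PSL3) :=
  exists_equiv_quot FC4 ord3 ord3_lt ord3_inj ord3_sum Phi3 Phi3_inj pi3 pi3_surj rootL 36 rootL_gen scs3 hsc3 scs3_len hP RTf TML gWL uWf hroot c1 c2 c3 c4 c5 hok c6 c7w c7 hle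
/-- The isomorphism. -/
noncomputable def e : P ≃* PSL3 := ex_e.some
theorem card_P : Nat.card P = 20160 := by
  rw [Nat.card_congr e.toEquiv, card_PSL3]

theorem hρ0inj : Function.Injective ρ0 := by
  have hk := IsSimpleGroup.eq_bot_or_eq_top_of_normal (H := (ρ0.comp e.symm.toMonoidHom).ker) inferInstance
  rcases hk with h | h
  · have h1 : Function.Injective (ρ0.comp e.symm.toMonoidHom) := (MonoidHom.ker_eq_bot_iff _).1 h
    intro a b hab
    have h2 := h1 (a₁ := e a) (a₂ := e b) (by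
      show ρ0 (e.symm (e a)) = ρ0 (e.symm (e b))
      rw [e.symm_apply_apply, e.symm_apply_apply]
      exact hab)
    exact e.injective h2
  · exfalso
    have hm : e (v 0) ∈ (ρ0.comp e.symm.toMonoidHom).ker := by
      rw [h]
      trivial
    have h1 : ρ0 (v 0) = 1 := by simpa [MonoidHom.mem_ker] using hm
    rw [hρ0 0 (by decide)] at h1
    have h2 : CN.p 0 = 1 := by simpa using h1
    have h3 : allBelow (fun i => Nat.beq (CN.τ 0 i) i) N0 = false := by decide +kernel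
    have h4 : allBelow (fun i => Nat.beq (CN.τ 0 i) i) N0 = true := by
      rw [allBelow_iff]
      intro i hi
      have h5 := Coset.p_val CN (x := 0) (by decide) (i := ⟨i, hi⟩)
      rw [h2] at h5
      have h6 : i = CN.τ (2 * 0) i := h5
      show Nat.beq (CN.τ 0 i) i = true
      rw [show CN.τ 0 i = i from h6.symm]
      exact Nat.beq_refl i
    rw [h3] at h4
    exact Bool.noConfusion h4

end Cfsg.Agent.Lib.KnownSimple.MultM.L34L
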